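import Cfsg.Agent.Lib.QdFree.Stable
import Cfsg.Agent.Lib.Amalgams.QdSylow

/-!
In `Qd(p)` no characteristic subgroup of a Sylow `p`-subgroup controls strong fusion.
-/

set_option autoImplicit false
set_option linter.style.haveILetI false

open scoped MatrixGroups

namespace CfsgLib.QdFree

open Cfsg CfsgLib.Amalgams.Qd

variable {p : ℕ} [hp : Fact p.Prime]

/-- The translations are their own centralizer. -/
theorem centralizer_qdTrans_le :
    Subgroup.centralizer ((Amalgams.Qd.trans : Subgroup (qdOver (ZMod p))) : Set (qdOver (ZMod p))) ≤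
      Amalgams.Qd.trans := by
  intro n hn
  obtain ⟨A, a, b, rfl⟩ := exists_eq_aff n
  show lin (aff A a b) = 1
  rw [lin_aff]
  have key : ∀ r s : ZMod p, aff A a b * aff 1 r s = aff 1 r s * aff A a b := fun r s =>
    (Subgroup.mem_centralizer_iff.1 hn _ (mem_trans_iff.2 ⟨r, s, rfl⟩)).symm
  have h10 := key 1 0
  have h01 := key 0 1
  simp only [aff_mul, aff_inj, mul_one, one_mul, Matrix.SpecialLinearGroup.coe_one, true_and]
    at h10 h01
  simp [add_comm] at h10 h01
  refine Matrix.SpecialLinearGroup.ext _ _ fun i j => ?_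
  fin_cases i <;> fin_cases j <;> simp [h10, h01]

/-- A nontrivial characteristic subgroup of a Sylow `p`-subgroup of a group isomorphic to `Qd(p)`
does not control strong fusion. -/
theorem not_controlsStrongFusion_of_equiv {Q : Type*} [Group Q]
    (e : Q ≃* qdOver (ZMod p)) (T : Sylow p Q) (W : Subgroup (T : Subgroup Q)) (hW : W ≠ ⊥)
    (hWc : W.Characteristic) :
    ¬ ControlsStrongFusion p (W.map (T : Subgroup Q).subtype) := by
  haveI : Finite (qdOver (ZMod p)) := inferInstance
  haveI : Finite Q := Finite.of_equiv _ e.symm.toEquiv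
  rintro ⟨T₀, -, hT₀⟩
  let P : Subgroup Q := (Amalgams.Qd.trans : Subgroup (qdOver (ZMod p))).comap e.toMonoidHom
  haveI hPn : P.Normal := by
    haveI : (Amalgams.Qd.trans : Subgroup (qdOver (ZMod p))).Normal := by
      unfold Amalgams.Qd.trans; infer_instance
    exact Subgroup.normal_comap _
  have hP : IsPGroup p P :=
    (isPGroup_trans (F := ZMod p) (p := p)).comap_of_injective _ e.injective
  have hPle : ∀ T' : Sylow p Q, P ≤ T' := fun T' =>
    (CfsgLib.Cores.le_pCore hP).trans (CfsgLib.Cores.pCore_le_sylow T')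
  set U := W.map (T : Subgroup Q).subtype
  have hTN : (T : Subgroup Q) ≤ Subgroup.normalizer (U : Set Q) :=
    Subgroup.le_normalizer.trans (CfsgLib.Cores.normalizer_le_normalizer_map_subtype _ W)
  have htop : Subgroup.normalizer (U : Set Q) = ⊤ := by
    rw [eq_top_iff]
    intro g _
    obtain ⟨x, hx, hgx⟩ := (hT₀ (P : Set Q) (hPle T₀)).2 g (by
      rintro _ ⟨a, ha, rfl⟩
      exact hPle T₀ (hPn.conj_mem a ha g))
    have hc : x⁻¹ * g ∈ Subgroup.centralizer (P : Set Q) := by
      intro a ha
      have h := hgx a ha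
      calc a * (x⁻¹ * g) = x⁻¹ * (x * a * x⁻¹) * g := by group
        _ = x⁻¹ * g * a := by rw [← h]; group
    have hcP : x⁻¹ * g ∈ P := by
      show e (x⁻¹ * g) ∈ Amalgams.Qd.trans
      refine centralizer_qdTrans_le fun b hb => ?_
      have h := hc (e.symm b) (show e (e.symm b) ∈ Amalgams.Qd.trans by
        rw [e.apply_symm_apply]; exact hb)
      have h' := congrArg e h
      simpa only [map_mul, e.apply_symm_apply] using h'
    have : x * (x⁻¹ * g) ∈ Subgroup.normalizer (U : Set Q) := mul_mem hx (hTN (hPle T hcP))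
    rwa [mul_inv_cancel_left] at this
  let S : Sylow p (qdOver (ZMod p)) := T.mapSurjective (f := e.toMonoidHom) e.surjective
  let i : (T : Subgroup Q) ≃* (S : Subgroup (qdOver (ZMod p))) :=
    ((T : Subgroup Q).equivMapOfInjective e.toMonoidHom e.injective).trans
      (MulEquiv.subgroupCongr (Sylow.coe_mapSurjective _ _).symm)
  have hc' : (W.map i.toMonoidHom).Characteristic := by
    refine Subgroup.characteristic_iff_map_eq.2 fun φ => ?_
    have h := Subgroup.characteristic_iff_map_eq.1 hWc ((i.trans φ).trans i.symm)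
    have h' := congrArg (Subgroup.map i.toMonoidHom) h
    rw [Subgroup.map_map] at h' ⊢
    convert h' using 2
    ext x
    simp
  have hne : W.map i.toMonoidHom ≠ ⊥ := fun h =>
    hW ((Subgroup.map_eq_bot_iff_of_injective _ i.injective).1 h)
  obtain ⟨h1, h2⟩ := normalizer_characteristic S (W.map i.toMonoidHom) hne hc'
  apply h2
  rw [← h1]
  have hU : (W.map i.toMonoidHom).map (S : Subgroup (qdOver (ZMod p))).subtype =
      U.map e.toMonoidHom := by
    rw [Subgroup.map_map, Subgroup.map_map]
    rfl
  have hN := Subgroup.map_normalizer_eq_of_bijective U (f := e.toMonoidHom) e.bijective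
  rw [hU]
  refine hN.symm.trans ?_
  rw [htop]
  exact Subgroup.map_top_of_surjective _ e.surjective

end CfsgLib.QdFree
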