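import Cfsg.Agent.Lib.QdFree.Witness
import Cfsg.Agent.Lib.ThompsonJ.Basic
import Cfsg.Agent.Lib.NormalPComplement.Thompson
import Cfsg.Agent.S2761
import Cfsg.Prelude.Def_ConjugacyFunctors

/-!
No set of characteristic functors controls strong fusion in `Qd(p)`; the converse halves of the
characterisations of `Qd(p)`-free groups by families of functors.
-/

set_option autoImplicit false
set_option linter.style.haveILetI false

open scoped MatrixGroups

namespace CfsgLib.QdFree

open Cfsg CfsgLib.Amalgams.Qd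

universe u

variable {p : ℕ} [hp : Fact p.Prime]

theorem exists_normalizer_ne_top {Q : Type*} [Group Q] (e : Q ≃* qdOver (ZMod p)) (T : Sylow p Q) :
    Subgroup.normalizer ((T : Subgroup Q) : Set Q) ≠ ⊤ ∧
      ∀ U : Subgroup (T : Subgroup Q), U ≠ ⊥ → U.Characteristic →
        Subgroup.normalizer ((U.map (T : Subgroup Q).subtype : Subgroup Q) : Set Q) =
          Subgroup.normalizer ((T : Subgroup Q) : Set Q) := by
  haveI : Finite (qdOver (ZMod p)) := inferInstance
  haveI : Finite Q := Finite.of_equiv _ e.symm.toEquiv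
  let S : Sylow p (qdOver (ZMod p)) := T.mapSurjective (f := e.toMonoidHom) e.surjective
  let i : (T : Subgroup Q) ≃* (S : Subgroup (qdOver (ZMod p))) :=
    ((T : Subgroup Q).equivMapOfInjective e.toMonoidHom e.injective).trans
      (MulEquiv.subgroupCongr (Sylow.coe_mapSurjective _ _).symm)
  have hST : (T : Subgroup Q).map e.toMonoidHom = (S : Subgroup (qdOver (ZMod p))) :=
    (Sylow.coe_mapSurjective _ _).symm
  have hmap : ∀ V : Subgroup Q, (Subgroup.normalizer (V : Set Q)).map e.toMonoidHom =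
      Subgroup.normalizer ((V.map e.toMonoidHom : Subgroup (qdOver (ZMod p))) : Set (qdOver (ZMod p))) := fun V =>
    Subgroup.map_normalizer_eq_of_bijective V (f := e.toMonoidHom) e.bijective
  have htrans : ∀ (U : Subgroup (T : Subgroup Q)), U ≠ ⊥ → U.Characteristic →
      Subgroup.normalizer (((U.map (T : Subgroup Q).subtype).map e.toMonoidHom : Subgroup (qdOver (ZMod p))) :
        Set (qdOver (ZMod p))) = Subgroup.normalizer ((S : Subgroup (qdOver (ZMod p))) : Set (qdOver (ZMod p))) ∧
      Subgroup.normalizer ((S : Subgroup (qdOver (ZMod p))) : Set (qdOver (ZMod p))) ≠ ⊤ := by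
    intro U hU hUc
    have hc' : (U.map i.toMonoidHom).Characteristic := by
      refine Subgroup.characteristic_iff_map_eq.2 fun φ => ?_
      have h := Subgroup.characteristic_iff_map_eq.1 hUc ((i.trans φ).trans i.symm)
      have h' := congrArg (Subgroup.map i.toMonoidHom) h
      rw [Subgroup.map_map] at h' ⊢
      convert h' using 2
      ext x
      simp
    have hne : U.map i.toMonoidHom ≠ ⊥ := fun h =>
      hU ((Subgroup.map_eq_bot_iff_of_injective _ i.injective).1 h)
    have h := normalizer_characteristic S (U.map i.toMonoidHom) hne hc'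
    have hU' : (U.map i.toMonoidHom).map (S : Subgroup (qdOver (ZMod p))).subtype =
        (U.map (T : Subgroup Q).subtype).map e.toMonoidHom := by
      rw [Subgroup.map_map, Subgroup.map_map]
      rfl
    rw [hU'] at h
    exact h
  have hTne : (T : Subgroup Q) ≠ ⊥ := by
    intro hT
    have hdvd : p ∣ Nat.card ↥(qdOver (ZMod p)) := by
      rw [Amalgams.Qd.card_qdOver, Nat.card_zmod]
      exact dvd_mul_left _ _
    have := T.dvd_card_of_dvd_card (by rw [Nat.card_congr e.toEquiv]; exact hdvd)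
    rw [hT, Subgroup.card_bot, Nat.dvd_one] at this
    exact hp.out.one_lt.ne' this
  refine ⟨fun h => ?_, fun U hU hUc => ?_⟩
  · haveI : Nontrivial (T : Subgroup Q) := (Subgroup.nontrivial_iff_ne_bot _).2 hTne
    have h1 := (htrans ⊤ top_ne_bot inferInstance).2
    apply h1
    rw [← hST, ← hmap, h]
    exact Subgroup.map_top_of_surjective _ e.surjective
  · refine Subgroup.map_injective (f := e.toMonoidHom) e.injective ?_
    rw [hmap, hmap, hST]
    exact (htrans U hU hUc).1

/-- No family of functors with nontrivial characteristic values controls strong fusion in `Qd(p)`. -/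
theorem not_familyControls_of_equiv {Q : Type*} [Group Q] (e : Q ≃* qdOver (ZMod p))
    (𝒲 : Set (Subgroup Q → Subgroup Q))
    (hW : ∀ W ∈ 𝒲, ∀ T : Sylow p Q, ∃ U : Subgroup (T : Subgroup Q), U ≠ ⊥ ∧ U.Characteristic ∧
      W (T : Subgroup Q) = U.map (T : Subgroup Q).subtype) :
    ¬ FamilyControlsStrongFusionIn p 𝒲 ⊤ := by
  haveI : Finite (qdOver (ZMod p)) := inferInstance
  haveI : Finite Q := Finite.of_equiv _ e.symm.toEquiv
  rintro ⟨T₀, -, hTp, hTi, hctrl⟩
  rw [Subgroup.relIndex_top_right] at hTi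
  let T : Sylow p Q := hTp.toSylow hTi
  have hT : (T : Subgroup Q) = T₀ := rfl
  obtain ⟨htop, hN⟩ := exists_normalizer_ne_top e T
  let P : Subgroup Q := (Amalgams.Qd.trans : Subgroup (qdOver (ZMod p))).comap e.toMonoidHom
  haveI hPn : P.Normal := by
    haveI : (Amalgams.Qd.trans : Subgroup (qdOver (ZMod p))).Normal := by
      unfold Amalgams.Qd.trans; infer_instance
    exact Subgroup.normal_comap _
  have hP : IsPGroup p P :=
    (isPGroup_trans (F := ZMod p) (p := p)).comap_of_injective _ e.injective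
  have hPT : P ≤ T₀ := hT ▸ (CfsgLib.Cores.le_pCore hP).trans (CfsgLib.Cores.pCore_le_sylow T)
  refine htop (eq_top_iff.2 fun g _ => ?_)
  obtain ⟨n, c, h0, hstep, -, hlast⟩ := hctrl (P : Set Q) g (Subgroup.mem_top g) hPT (by
    rintro _ ⟨a, ha, rfl⟩
    exact hPT (hPn.conj_mem a ha g))
  have hmem : ∀ i : Fin (n + 1), c i ∈ Subgroup.normalizer ((T : Subgroup Q) : Set Q) := by
    intro i
    induction i using Fin.induction with
    | zero => rw [h0]; exact one_mem _
    | succ j ih =>
      obtain ⟨W, hWm, hWj⟩ := hstep j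
      obtain ⟨U, hU, hUc, hUe⟩ := hW W hWm T
      have h1 : c j.succ * (c j.castSucc)⁻¹ ∈ Subgroup.normalizer ((T : Subgroup Q) : Set Q) := by
        have h2 := hWj.2
        rw [← hT, hUe, hN U hU hUc] at h2
        exact h2
      have := mul_mem h1 ih
      simpa using this
  set x := c (Fin.last n) with hx
  have hc : x⁻¹ * g ∈ Subgroup.centralizer (P : Set Q) := by
    intro a ha
    have h := hlast a ha
    calc a * (x⁻¹ * g) = x⁻¹ * (x * a * x⁻¹) * g := by group
      _ = x⁻¹ * g * a := by rw [h]; group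
  have hcP : x⁻¹ * g ∈ P := by
    show e (x⁻¹ * g) ∈ Amalgams.Qd.trans
    refine centralizer_qdTrans_le fun b hb => ?_
    have h := hc (e.symm b) (show e (e.symm b) ∈ Amalgams.Qd.trans by
      rw [e.apply_symm_apply]; exact hb)
    have h' := congrArg e h
    simpa only [map_mul, e.apply_symm_apply] using h'
  have := mul_mem (hmem (Fin.last n)) (Subgroup.le_normalizer (hT ▸ hPT hcP) :
    x⁻¹ * g ∈ Subgroup.normalizer ((T : Subgroup Q) : Set Q))
  rwa [mul_inv_cancel_left] at this

/-- The converse half for isomorphism-invariant functors. -/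
theorem not_involves_qd_of_familyControls {G : Type u} [Group G] [Finite G]
    {𝓦 : Set (∀ (Q : Type u) [Group Q], Subgroup Q)} (h𝓦 : ∀ W ∈ 𝓦, IsCharPFunctor.{u} p W)
    (h : ∀ (K R : Subgroup G) [hR : (R.subgroupOf K).Normal], FamilyControlsStrongFusionIn p
      ((fun W => inducedFunctor (G := (↥K ⧸ R.subgroupOf K)) W) '' 𝓦) ⊤) :
    ¬ Involves ↥(qd p) G := by
  rintro ⟨K, R, hR, ⟨e⟩⟩
  refine not_familyControls_of_equiv (p := p) e _ ?_ (h K R)
  rintro _ ⟨W, hW, rfl⟩ T
  obtain ⟨hne, hiso⟩ := h𝓦 W hW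
  haveI : Nontrivial (T : Subgroup (↥K ⧸ R.subgroupOf K)) := by
    refine (Subgroup.nontrivial_iff_ne_bot _).2 fun hT => ?_
    have hdvd : p ∣ Nat.card ↥(qdOver (ZMod p)) := by
      rw [Amalgams.Qd.card_qdOver, Nat.card_zmod]
      exact dvd_mul_left _ _
    have := T.dvd_card_of_dvd_card (by rw [Nat.card_congr e.toEquiv]; exact hdvd)
    rw [hT, Subgroup.card_bot, Nat.dvd_one] at this
    exact hp.out.one_lt.ne' this
  exact ⟨W ↥(T : Subgroup (↥K ⧸ R.subgroupOf K)), hne _ T.2 inferInstance,
    Subgroup.characteristic_iff_map_eq.2 fun φ => hiso _ _ T.2 φ, rfl⟩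

/-- The converse half for the pair of the centre and the Thompson subgroup. -/
theorem not_involves_perm_four_of_familyControls {G : Type*} [Group G] [Finite G]
    (h : ∀ (K R : Subgroup G) [hR : (R.subgroupOf K).Normal], FamilyControlsStrongFusionIn 2
      ({fun P : Subgroup (↥K ⧸ R.subgroupOf K) =>
          P ⊓ Subgroup.centralizer ((P : Subgroup (↥K ⧸ R.subgroupOf K)) : Set (↥K ⧸ R.subgroupOf K)),
        fun P : Subgroup (↥K ⧸ R.subgroupOf K) => thompsonSubgroupOf 2 P} :
        Set (Subgroup (↥K ⧸ R.subgroupOf K) → Subgroup (↥K ⧸ R.subgroupOf K))) ⊤) :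
    ¬ Involves (Equiv.Perm (Fin 4)) G := by
  rintro ⟨K, R, hR, ⟨e⟩⟩
  haveI : Fact (Nat.Prime 2) := ⟨Nat.prime_two⟩
  obtain ⟨e2⟩ := Cfsg.Agent.S2761.result
  refine not_familyControls_of_equiv (p := 2) (e.trans e2.symm) _ ?_ (h K R)
  intro W hW T
  have hdvd : 2 ∣ Nat.card (T : Subgroup (↥K ⧸ R.subgroupOf K)) :=
    T.dvd_card_of_dvd_card (by
      rw [Nat.card_congr e.toEquiv, Nat.card_perm, Nat.card_fin]; decide)
  haveI : Nontrivial (T : Subgroup (↥K ⧸ R.subgroupOf K)) :=
    (Subgroup.nontrivial_iff_ne_bot _).2 fun hT => by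
      rw [hT, Subgroup.card_bot] at hdvd; norm_num at hdvd
  rcases hW with rfl | rfl
  · refine ⟨Subgroup.center _, T.2.bot_lt_center.ne', inferInstance, ?_⟩
    ext x
    constructor
    · rintro ⟨hx, hc⟩
      exact ⟨⟨x, hx⟩, Subgroup.mem_center_iff.2 fun y => Subtype.ext (hc y y.2), rfl⟩
    · rintro ⟨y, hy, rfl⟩
      exact ⟨y.2, fun z hz => congrArg Subtype.val (Subgroup.mem_center_iff.1 hy ⟨z, hz⟩)⟩
  · refine ⟨thompsonSubgroupOf 2 (⊤ : Subgroup (T : Subgroup (↥K ⧸ R.subgroupOf K))),
      CfsgLib.ThompsonJ.thompsonSubgroupOf_ne_bot (by rwa [Subgroup.card_top]),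
      Subgroup.characteristic_iff_map_eq.2 fun φ => ?_, ?_⟩
    · rw [CfsgLib.ThompsonJ.map_thompsonSubgroupOf (f := φ.toMonoidHom) φ.injective,
        Subgroup.map_top_of_surjective _ (show Function.Surjective φ.toMonoidHom from φ.surjective)]
    · rw [CfsgLib.ThompsonJ.map_thompsonSubgroupOf (Subgroup.subtype_injective _),
        ← MonoidHom.range_eq_map, Subgroup.range_subtype]

end CfsgLib.QdFree
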